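import Mathlib
import Cfsg.Agent.Lib.Helper69.APQ.Defs
import Cfsg.Agent.S4220

/-!
# APQ (S4150), package [T13ASM]

A transitive subgroup of `Alt(β)`, `|β| = 13`, containing an `11`-cycle contains `Alt(β)`:
assembly of [T3], [T13K1], [T13K2], [T13K3], [T13S], [T13F] and the landed S4220.
-/

set_option autoImplicit false

namespace Cfsg.Agent.Lib.Helper15.APQ

open Equiv Cfsg.Agent.Lib.Helper69.APQ

universe u

theorem pkgTwin13_of (h3 : PkgT3.{u}) (hK1 : PkgT13K1.{u}) (hK2 : PkgT13K2.{u})
    (hK3 : PkgT13K3.{u}) (hS : PkgT13S.{u}) (hF : PkgT13F.{u}) : PkgTwin13.{u} := by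
  intro β _ _ G hcard hGalt htr hex
  have hprim : MulAction.IsPreprimitive G β := by
    apply MulAction.IsPreprimitive.of_prime_card
    rw [Nat.card_eq_fintype_card, hcard]
    norm_num
  have h3t := h3 G 11 (by norm_num) (by rw [hcard]) hprim hex
  obtain ⟨g, hg, hct⟩ := hex
  -- the two fixed points of `g`
  have hfix := Equiv.Perm.card_fixedPoints g
  rw [hcard, hct, Multiset.sum_singleton] at hfix
  have hfix2 : 1 < Fintype.card (Function.fixedPoints g) := by rw [hfix]; norm_num
  obtain ⟨x, y, hxy⟩ := Fintype.exists_pair_of_one_lt_card hfix2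
  have hab : (x : β) ≠ (y : β) := fun h => hxy (Subtype.ext h)
  have hga : g (x : β) = (x : β) := x.2
  have hgb : g (y : β) = (y : β) := y.2
  rcases hK1 G hcard h3t g hg hct (x : β) (y : β) hab hga hgb with h4 | hsolv
  · exact Cfsg.Agent.S4220.result G (k := 2) (p := 5) (r := 3) (by norm_num)
      (by rw [hcard]) (by norm_num) (by norm_num) (by norm_num) (by norm_num) h4
  · exfalso
    have h2t : MulAction.IsMultiplyPretransitive G β 2 :=
      MulAction.isMultiplyPretransitive_of_le (n := 3) (by norm_num)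
        (by rw [Nat.card_eq_fintype_card, hcard]; norm_num)
    have hc := hK3 G h2t (x : β) (y : β) hab
    rw [hcard] at hc
    rcases hK2 G hcard hGalt g hg hct (x : β) (y : β) hab hga hgb hsolv with h11 | h55
    · rw [h11] at hc
      exact hF G hcard h3t (by rw [hc])
    · rw [h55] at hc
      exact hS G hcard (by rw [hc])

end Cfsg.Agent.Lib.Helper15.APQ
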