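import Mathlib
import Cfsg.Agent.Lib.Helper69.APQ.Defs
import Cfsg.Agent.S0678

/-!
# APQ (S4150), package [TWIN7]

A transitive permutation group of degree `7` containing a `5`-cycle contains the alternating
group: it is primitive (prime degree), `3`-transitive by [T3], not solvable by [NSOLV], and the
landed S0678 leaves only a group of order `168`, which has no element of order `5`.
-/

set_option autoImplicit false

namespace Cfsg.Agent.Lib.Helper15.APQ

open Equiv Cfsg.Agent.Lib.Helper69.APQ

universe u

theorem pkgTwin7_of (h3 : PkgT3.{u}) (hN : PkgNSolv.{u}) : PkgTwin7.{u} := by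
  intro β _ _ G hcard htr hex
  have hprim : MulAction.IsPreprimitive G β := by
    apply MulAction.IsPreprimitive.of_prime_card
    rw [Nat.card_eq_fintype_card, hcard]
    norm_num
  have h3t := h3 G 5 (by norm_num) (by rw [hcard]) hprim hex
  have hns := hN G (by rw [hcard]; decide) (by rw [hcard]; norm_num) h3t
  by_contra hA
  obtain ⟨h168, -⟩ := Cfsg.Agent.S0678.result hcard G hns hA
  obtain ⟨g, hg, hct⟩ := hex
  have hord : orderOf g = 5 := by
    rw [← Equiv.Perm.lcm_cycleType, hct]
    simp
  have hord' : orderOf (⟨g, hg⟩ : G) = 5 := by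
    rw [← hord]
    exact Subgroup.orderOf_mk g hg
  have hdvd : 5 ∣ Nat.card G := by
    rw [← hord']
    exact orderOf_dvd_natCard _
  rw [h168] at hdvd
  revert hdvd
  decide

end Cfsg.Agent.Lib.Helper15.APQ
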